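import Mathlib
import Cfsg.Agent.Lib.Helper10.Card

set_option autoImplicit false

namespace Cfsg.Agent.Lib.Helper10

open Pointwise

variable {G : Type*} [Group G]

theorem conj_smul_normalizer (g : G) (H : Subgroup G) :
    MulAut.conj g • Subgroup.normalizer (H : Set G) =
      Subgroup.normalizer ((MulAut.conj g • H : Subgroup G) : Set G) :=
  Subgroup.map_equiv_normalizer_eq H (MulAut.conj g)

/-- Two `q`-subgroups of `R` of index prime to `q` in `R` are conjugate in `R`. -/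
theorem exists_conj_of_sylow_in [Finite G] {R : Subgroup G} {q : ℕ} [Fact q.Prime] {Q T : Subgroup G}
    (hQR : Q ≤ R) (hTR : T ≤ R) (hQ : IsPGroup q Q) (hT : IsPGroup q T)
    (hQi : ¬ q ∣ Q.relIndex R) (hTi : ¬ q ∣ T.relIndex R) :
    ∃ r ∈ R, MulAut.conj r • Q = T := by
  let P₁ : Sylow q R := (hQ.comap_subtype (K := R)).toSylow hQi
  let P₂ : Sylow q R := (hT.comap_subtype (K := R)).toSylow hTi
  obtain ⟨r, hr⟩ := MulAction.exists_smul_eq R P₁ P₂
  refine ⟨r, r.2, ?_⟩
  have h1 : ((r • P₁ : Sylow q R) : Subgroup R) = (P₂ : Subgroup R) := by rw [hr]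
  rw [Sylow.coe_subgroup_smul] at h1
  have h2 : (P₁ : Subgroup R) = Q.subgroupOf R := rfl
  have h3 : (P₂ : Subgroup R) = T.subgroupOf R := rfl
  rw [h2, h3, Subgroup.conj_smul_subgroupOf hQR, Subgroup.subgroupOf_inj,
    inf_eq_left.mpr (Subgroup.conj_smul_le_of_le hQR r), inf_eq_left.mpr hTR] at h1
  exact h1

end Cfsg.Agent.Lib.Helper10
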